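import Mathlib
import Cfsg.Agent.Lib.Helper81.FCZ.Defs

/-!
# FCZ: [C2-SMALL]
-/

set_option autoImplicit false

namespace Cfsg.Agent.Lib.Helper85.FCZ

open Cfsg.Agent.Lib.Helper81.FCZ

universe u

/-- **[C2-SMALL]** a group of order not divisible by 4 has cyclic Sylow 2-subgroups. -/
theorem pkgC2Small : PkgC2Small.{u} := by
  intro G _ _ M h4 P
  obtain ⟨n, hn⟩ := IsPGroup.iff_card.mp P.isPGroup'
  have hdvd : Nat.card (P : Subgroup M) ∣ Nat.card M := Subgroup.card_subgroup_dvd_card _
  have hn1 : n ≤ 1 := by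
    by_contra hcon
    have h2 : 2 ≤ n := by omega
    apply h4
    refine dvd_trans ?_ hdvd
    rw [hn]
    exact pow_dvd_pow 2 h2
  interval_cases n
  · rw [pow_zero] at hn
    haveI : Subsingleton (P : Subgroup M) := (Nat.card_eq_one_iff_unique.mp hn).1
    exact isCyclic_of_subsingleton
  · rw [pow_one] at hn
    exact isCyclic_of_prime_card (p := 2) hn

end Cfsg.Agent.Lib.Helper85.FCZ
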