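import Mathlib
import Cfsg.Agent.Lib.Helper81.FCZ.Defs

/-!
# FCZ: [U-SYLIMG], [U-LE], [U-DNZ]
-/

set_option autoImplicit false

namespace Cfsg.Agent.Lib.Helper85.FCZ

open Cfsg.Agent.Lib.Helper81.FCZ

universe u

/-- **[U-SYLIMG]** cyclic Sylow 2-subgroups pass to quotients. -/
theorem pkgUSylImg : PkgUSylImg.{u} := by
  intro G _ _ X _ f hf hC2 P
  haveI : Finite X := Finite.of_surjective f hf
  obtain ⟨P₀⟩ : Nonempty (Sylow 2 G) := inferInstance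
  have hcyc₀ : IsCyclic (P₀ : Subgroup G) := hC2 P₀
  obtain ⟨Q, hQ⟩ : ∃ Q : Sylow 2 X, (Q : Subgroup X) = (P₀ : Subgroup G).map f :=
    ⟨P₀.mapSurjective hf, Sylow.coe_mapSurjective hf P₀⟩
  have hcycQ : IsCyclic (Q : Subgroup X) := by
    rw [hQ]
    exact isCyclic_of_surjective (f.subgroupMap (P₀ : Subgroup G))
      (f.subgroupMap_surjective (P₀ : Subgroup G))
  obtain ⟨g, hg⟩ := MulAction.exists_smul_eq X Q P
  rw [← hg]
  exact isCyclic_of_surjective (Sylow.equivSMul Q g) (Sylow.equivSMul Q g).surjective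

/-- **[U-LE]** -/
theorem pkgULe : PkgULe.{u} := by
  intro G _ _ X _ f hf hX N hN hC2
  have hK : (N.map f).Normal := hN.map f hf
  have hC2K : C2 ↥(N.map f) :=
    pkgUSylImg.{u} (f.subgroupMap N) (f.subgroupMap_surjective N) hC2
  have h1 := hX (N.map f) hK hC2K
  exact (Subgroup.map_eq_bot_iff N).mp h1

/-- **[U-DNZ]** -/
theorem pkgUDNZ : PkgUDNZ.{u} := by
  intro G _ X _ f₁ f₂ hf₂ hle a b
  obtain ⟨g, rfl⟩ := hf₂ a
  obtain ⟨h, rfl⟩ := hf₂ b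
  have hcomm : ∀ x y : DihedralGroup 2, x * y = y * x := by decide
  have h1 : g * h * g⁻¹ * h⁻¹ ∈ f₁.ker := by
    rw [MonoidHom.mem_ker, map_mul, map_mul, map_mul, map_inv, map_inv, hcomm (f₁ g) (f₁ h)]
    group
  have h2 := hle h1
  rw [MonoidHom.mem_ker, map_mul, map_mul, map_mul, map_inv, map_inv] at h2
  calc f₂ g * f₂ h = f₂ g * f₂ h * (f₂ g)⁻¹ * (f₂ h)⁻¹ * (f₂ h * f₂ g) := by group
    _ = f₂ h * f₂ g := by rw [h2, one_mul]

end Cfsg.Agent.Lib.Helper85.FCZ
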